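/-
Constrained systems modulo central subgroups; fusion systems of quotient groups and of subnormal subgroups.
-/
import Cfsg.Agent.Fus.Comp
import Cfsg.Agent.Fus.GroupNormal

set_option autoImplicit false

namespace Cfsg.Lib.Fus

open Cfsg Cfsg.FusionSystem Subgroup

variable {Ω Ω' : Type*} [Group Ω] [Group Ω'] {S T H P Q X Z : Subgroup Ω} {S' : Subgroup Ω'}
  {F : FusionSystem S} {D : FusionSystem S'} {t : Ω → Ω'} {p : ℕ}

/-- In a constrained system a strongly closed subgroup stabilizing `1 ≤ Z ≤ O_p(F)` lies in `O_p(F)`. -/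
theorem le_core_of_trivMod [Finite S] [Fact p.Prime] (hS : IsPGroup p S) (hF : F.IsConstrained p)
    (hX : F.StronglyClosed X) (hZ : F.StronglyClosed Z) (hZQ : Z ≤ F.core)
    (h1 : ∀ x ∈ X, ∀ z ∈ Z, x * z * x⁻¹ = z)
    (h2 : ∀ x ∈ X, ∀ y ∈ F.core, y⁻¹ * (x * y * x⁻¹) ∈ Z) : X ≤ F.core := by
  have hQ := isNormal_core F
  have hC := isCentric_self (constrained_isCentric_core hF)
  have hQs := stronglyClosed_of_isNormal hQ
  refine le_core (isNormal_of_weaklyClosed_of_le_cr hS hF.1 (weaklyClosed_of_stronglyClosed hX)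
    fun P hP hc hr => ?_)
  have := finite_of_le hP.1
  have hPp := hS.to_le hP.1
  have hQP := IsNormal.le_of_radical hS hQ (isCentric_self hc) hr
  have hinv : ∀ V, F.StronglyClosed V → V ≤ P → ∀ a ∈ F.autGroup P, ∀ x ∈ V, pext P a x ∈ V :=
    fun V hV hVP a ha x hx => (piso_pext_of_mem hP.1 ha).mor.mem_of_stronglyClosed hV (hVP hx) hx
  refine le_of_radical hS (isCentric_self hc) hr hX.1 (hP.1.trans (le_normalizer_of_stronglyClosed hX))
    fun x hx hxN => ((((pOn_bot (conjAut_mem_autGroup F hP.1 (hX.1 hx) hxN)).step hPp bot_le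
      (hZQ.trans hQP) (hinv _ (stronglyClosed_bot F) bot_le)
      (hinv _ hZ (hZQ.trans hQP)) fun y hy => ?_).step hPp hZQ hQP
      (hinv _ hZ (hZQ.trans hQP)) (hinv _ hQs hQP)
      fun y hy => ?_).of_centric hPp hQP (hP.1.trans (le_normalizer_of_stronglyClosed hQs))
      ((centralizerIn_mono_left hP.1).trans hC)).mem_pCoreIn
  · rw [pext_conjAut _ (hQP (hZQ hy)), h1 x hx y hy, inv_mul_cancel]; exact one_mem _
  · rw [pext_conjAut _ (hQP hy)]; exact h2 x hx y hy

/-- A constrained system modulo a central subgroup is constrained. -/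
theorem FImg.isConstrained_of_central [Finite S] [Fact p.Prime] (hD : FImg F D t) (hS : IsPGroup p S)
    (hF : F.IsConstrained p) (hZ : F.IsCentral (pre S t ⊥)) : D.IsConstrained p := by
  have := hD.finite
  have hQ := isNormal_core F
  have hQ' := hD.isNormal_img hQ
  have hZQ : pre S t ⊥ ≤ F.core := le_core (isNormal_of_isCentral hZ)
  have hX := hD.stronglyClosed_pre (stronglyClosed_centralizerIn_of_isNormal hQ')
  have key := le_core_of_trivMod hS hF hX hD.stronglyClosed_ker hZQ (fun x hx z hz => ?_)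
    fun x hx y hy => ?_
  · refine isConstrained_of_isNormal (hD.saturated hS hF.1) hQ' ?_
    exact (hD.img_pre centralizerIn_le).ge.trans (img_mono t key)
  · have := (mem_centralizerIn'.1 (isCentral_le_centralizerIn' hZ hz)).2 x (pre_le hx)
    rw [mul_inv_eq_iff_eq_mul] at this ⊢
    exact this.symm
  · have hxS : x ∈ S := pre_le hx
    have hyS : y ∈ S := hQ.1 hy
    refine (hD.mulOn.eq_iff hyS (mul_mem (mul_mem hxS hyS) (inv_mem hxS))).1 ?_
    rw [hD.mulOn.map_conj hxS hyS]
    exact ((mem_centralizerIn'.1 (hD.mulOn.mem_pre.1 hx).2).2 _ (mem_img_of_mem t hy)).symm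

/-- The fusion system of a quotient group is the image of the fusion system of the group. -/
theorem fImg_ofSubgroup [Finite H] [Fact p.Prime] (hT : SylIn p T H) (ht : MulOn H t)
    (hs : ∀ y, ∃ x ∈ H, t x = y) :
    FImg (fusionSystemOfSubgroup H T hT.le) (groupFusionSystem (img T t)) t where
  mulOn := ht.mono hT.le
  img_eq := rfl
  mor P f hf := by
    obtain ⟨hP, hm, s, hs, e⟩ := mor_ofSubgroup.1 hf
    have e' : ∀ x ∈ P, cj (t s) (t x) = t (f x) := fun x hx => by
      rw [e x hx, ht.map_conj hs (hT.le (hP hx)), cj_apply]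
    refine ⟨cj (t s), mor_group.2 ⟨img_mono t hP, fun y hy => ?_, t s, fun y _ => cj_apply _ _⟩, e'⟩
    obtain ⟨x, hx, rfl⟩ := (ht.mono (hP.trans hT.le)).mem_img.1 hy
    exact e' x hx ▸ mem_img_of_mem t (hm x hx)
  lift P' f' hf' := by
    obtain ⟨hP', hm, s', e⟩ := mor_group.1 hf'
    obtain ⟨s, hsH, rfl⟩ := hs s'
    have hT' := ht.mono hT.le
    have hPT : pre T t P' ≤ T := pre_le
    set A := pre H t (img T t) with hA
    have hAH : A ≤ H := pre_le
    have := finite_of_le hAH
    have hTA : SylIn p T A := hT.mono (le_pre_img hT.le) hAH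
    have hU : (pre T t P').map (MulAut.conj s).toMonoidHom ≤ A := by
      rintro _ ⟨x, hx, rfl⟩
      have hx' := hT'.mem_pre.1 hx
      refine mem_pre_of (mul_mem (mul_mem hsH (hT.le hx'.1)) (inv_mem hsH)) ?_
      change t (s * x * s⁻¹) ∈ _
      rw [ht.map_conj hsH (hT.le hx'.1), ← e _ hx'.2]
      exact hm _ hx'.2
    obtain ⟨a, ha, hc⟩ := hTA.exists_conj hU ((hT.pgroup.to_le hPT).map _)
    obtain ⟨u, hu, hua⟩ := hT'.mem_img.1 (ht.mem_pre.1 ha).2
    have haH := hAH ha
    have huH := hT.le hu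
    have hb : u⁻¹ * a * s ∈ H := mul_mem (mul_mem (inv_mem huH) haH) hsH
    refine ⟨cj (u⁻¹ * a * s), mor_ofSubgroup.2 ⟨hPT, fun x hx => ?_, _, hb,
      fun x _ => cj_apply _ _⟩, fun x hx => ?_⟩
    · have := T.mul_mem (T.mul_mem (T.inv_mem hu) (hc _ ⟨x, hx, rfl⟩)) hu
      simpa [cj_apply, mul_assoc] using this
    · have hx' := hT'.mem_pre.1 hx
      rw [e _ hx'.2, cj_apply, ht.map_conj hb (hT.le hx'.1), ht _ (mul_mem (inv_mem huH) haH) _ hsH,
        ht _ (inv_mem huH) _ haH, ht.map_inv huH, hua, inv_mul_cancel, one_mul]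

/-- The fusion system of a subnormal subgroup inherits constraint. -/
theorem constrained_ofSubgroup_of_isSubnormal {G : Type*} [Group G] [Finite G] [Fact p.Prime]
    (S : Sylow p G) (hF : (groupFusionSystem (S : Subgroup G)).IsConstrained p) {L : Subgroup G}
    (hL : L.IsSubnormal) : SylIn p ((S : Subgroup G) ⊓ L) L ∧
      (fusionSystemOfSubgroup L ((S : Subgroup G) ⊓ L) inf_le_right).IsConstrained p := by
  have aux : ∀ {T K L : Subgroup G} (hT : SylIn p T K), L ≤ K → K ≤ normalizer (L : Set G) →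
      (fusionSystemOfSubgroup K T hT.le).IsConstrained p → ∀ {T'}, T' = T ⊓ L → ∀ h : T' ≤ L,
      SylIn p T' L ∧ (fusionSystemOfSubgroup L T' h).IsConstrained p := by
    intro T K L hT hLK hn hc T' e h
    subst e
    have h1 := hT.inf_normal hLK hn
    have h2 := Grp.isNormalIn_of_normal (hT.isSylowIn) hLK hn
    exact ⟨h1, constrained_of_subnormal hT.pgroup hc (.step (.refl _ _) h2)⟩
  induction hL with
  | top =>
    exact aux (sylIn_top S) le_rfl le_normalizer (Grp.groupFusionSystem_eq (S : Subgroup G) ▸ hF) rfl _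
  | step H K hle _ hN ih =>
    exact aux ih.1 hle ((normal_subgroupOf_iff_le_normalizer hle).1 hN) ih.2
      (by rw [inf_assoc, inf_eq_right.2 hle]) _

end Cfsg.Lib.Fus
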